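import Cfsg.Agent.H628.Sq.TwFMain
import Cfsg.Agent.H811.PSq.TwFFam

/-!
# S4844, row `²F₄(q)`, `q > 2`, complete
-/

set_option autoImplicit false

namespace Cfsg.Agent.H628.Sq.TwFMain

open Cfsg

universe u

/-- **S4844, the row `²F₄(q)`, `q > 2`.** -/
theorem sq_tf {S : Type u} [Group S] [Finite S] (h : Lie.Iso2F4 S) {p : ℕ} [hp : Fact p.Prime]
    (hp2 : p ≠ 2) (hd : p ^ 2 ∣ Nat.card S) : H33.IM (p ^ 2) S :=
  sq_tf_of_fam (fun _K _ _ _m hm hK _ => Cfsg.Agent.H811.PSq.TwF.exists_family_tf4 hm hK) h hp2 hd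

end Cfsg.Agent.H628.Sq.TwFMain
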